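import Cfsg.Agent.Lib.Ext2.Split

/-!
# A cheaper way to check a splitting certificate

`ok_of`: the check `Cert.ok` follows from three cheaper checks (termination of the collector without the table,
injectivity of the table by a decoding function, and the rows computed with a random pad).
-/

set_option autoImplicit false

namespace Cfsg.Lib.X10.Spl

open Cfsg.Lib.Ext2 Cfsg.Lib.Calc Cfsg.Lib.F2

theorem run_pos {n dd T o dd' T' o' : ℕ} {rules : List (List ℕ)} {f : ℕ} {st : List ℕ} {e acc acc' : ℕ}
    (h : 0 < run n dd T o rules f st e acc) : 0 < run n dd' T' o' rules f st e acc' := by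
  induction f generalizing st e acc acc' with
  | zero => exact absurd h (lt_irrefl 0)
  | succ f ih =>
    cases st with
    | nil => exact Nat.succ_pos _
    | cons a st =>
      have key : ∀ dd T o acc, run n dd T o rules (f + 1) (a :: st) e acc = forceN a (fun a => cnd (Nat.ble n a)
        (forceN (acc ^^^ (get dd T (o + e)) <<< (dd * (a - n))) (run n dd T o rules f st e))
        (cnd (blt e (Nat.shiftLeft 1 a))
          (forceN (e + Nat.shiftLeft 1 a) fun e => run n dd T o rules f st e acc)
          (forceN (Nat.log2 e) fun j => forceN (tri j + a) fun r =>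
            forceN (e - Nat.shiftLeft 1 j) fun e =>
              run n dd T o rules f ((n + r) :: cat (nthL rules r) st) e acc))) := fun _ _ _ _ => rfl
      rw [key] at h ⊢
      simp only [forceN_eq] at h ⊢
      cases h1 : Nat.ble n a
      · rw [h1, cnd_false] at h
        rw [cnd_false]
        cases h2 : blt e (Nat.shiftLeft 1 a)
        · rw [h2, cnd_false] at h; rw [cnd_false]; exact ih h
        · rw [h2, cnd_true] at h; rw [cnd_true]; exact ih h
      · rw [h1, cnd_true] at h; rw [cnd_true]; exact ih h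

/-- The collector terminates. -/
noncomputable def term (C : Cert) : Bool :=
  allLt (2 ^ C.n) fun e => allLt C.n fun a => blt 0 (run C.n 0 0 0 C.l2 C.F [a] e 0)

theorem blk_xor (C : Cert) (D P : ℕ) : C.blk (D ^^^ P) ^^^ C.blk P = C.blk D := by
  have h2 : ∀ D b, pack C.d (fun r => get C.d D (C.d * r + b)) (C.R0 + C.n) < 2 ^ (C.d * (C.R0 + C.n)) := fun D b =>
    pack_lt fun _ _ => get_lt _ _ _
  have h1 : ∀ D, C.blk D < 2 ^ (C.W * C.d) := fun D => pack_lt fun b _ => h2 D b
  have h3 : ∀ D, ∀ b < C.d, get C.W (C.blk D) b = pack C.d (fun r => get C.d D (C.d * r + b)) (C.R0 + C.n) :=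
    fun D b hb => get_pack (fun b _ => h2 D b) hb
  refine eq_of_get_eq (Nat.xor_lt_two_pow (h1 _) (h1 _)) (h1 _) fun b hb => ?_
  rw [get_xor, h3 _ b hb, h3 _ b hb, h3 _ b hb]
  refine eq_of_get_eq (Nat.xor_lt_two_pow (h2 _ _) (h2 _ _)) (h2 _ _) fun r hr => ?_
  rw [get_xor, get_pack (fun _ _ => get_lt _ _ _) hr, get_pack (fun _ _ => get_lt _ _ _) hr,
    get_pack (fun _ _ => get_lt _ _ _) hr, get_xor, Nat.xor_assoc, Nat.xor_self, Nat.xor_zero]

/-- The rows, computed with pads (the kernel is slow when many numbers have the same low bits). -/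
noncomputable def rowsP (C : Cert) (T : ℕ) : ℕ :=
  get (C.d * C.R0) C.lam 0 + Nat.shiftLeft (pack (C.W * C.d) (fun c => forceN (Nat.xor (C.rel T c) c) fun D =>
    Nat.xor (C.blk D) (C.blk c)) (C.n + C.ck.length + tri C.n)) C.W

theorem rowsP_eq (C : Cert) (T : ℕ) : rowsP C T = C.rows T := by
  rw [rowsP, Cert.rows]
  congr 3
  funext c
  rw [forceN_eq, forceN_eq]
  exact blk_xor C _ c

/-- Elimination with a table of the pivots. -/
noncomputable def elimP (W O P c : ℕ) : ℕ → Bool :=
  Nat.rec (motive := fun _ => ℕ → Bool) (fun X => Nat.beq X (nat_lit 0)) (fun i ih X =>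
    forceB (Nat.land X (msk W)) fun b => forceB (Nat.shiftRight X W) fun X => forceB (get (nat_lit 12) P i) fun p =>
      band (bor (Nat.beq b (nat_lit 0)) (Nat.beq (Nat.shiftRight b p) (nat_lit 1)))
        (forceB (Nat.xor X (Nat.mul (Nat.land (Nat.shiftRight X p) O) b)) ih)) c

theorem elim_of {W O P c X : ℕ} (h : elimP W O P c X = true) : elim W O c X = true := by
  induction c generalizing X with
  | zero => exact h
  | succ c ih =>
    change forceB (X &&& msk W) (fun b => forceB (X >>> W) fun X => forceB (get 12 P c) fun p =>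
      band (bor (Nat.beq b 0) (Nat.beq (b >>> p) 1)) (forceB (X ^^^ (((X >>> p) &&& O) * b)) (elimP W O P c))) = true at h
    change forceB (X &&& msk W) (fun b => forceB (X >>> W) fun X =>
      forceB (X ^^^ (((X >>> b.log2) &&& O) * b)) (elim W O c)) = true
    simp only [forceB_eq, band_eq_true, bor_eq_true, beq_iff] at h ⊢
    generalize X &&& msk W = b at h ⊢
    generalize get 12 P c = p at h
    obtain ⟨h1 | h1, h2⟩ := h
    · subst h1; simpa using ih (by simpa using h2)
    · have h0 : b ≠ 0 := by rintro rfl; simp at h1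
      have : b.log2 = p := by
        rw [Nat.shiftRight_eq_div_pow] at h1
        rw [Nat.log2_eq_iff h0, pow_succ]
        have := Nat.div_add_mod b (2 ^ p)
        have := Nat.mod_lt b (Nat.two_pow_pos p)
        rw [h1] at *
        omega
      rw [this]; exact ih h2

/-- The checks that use the table. -/
noncomputable def okP (C : Cert) (dec : ℕ → ℕ) (P T : ℕ) : Bool :=
  band (allLt (2 ^ C.n) fun e => forceB (get (C.d * C.d) T e) fun M => Nat.beq (dec M) e)
    (band (allLt (tri C.n) fun r => blt 0 (C.dif T 0 (C.md (nthL C.l1 r)) (C.md (nthL C.l2 r))))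
      (forceB (rowsP C T) fun X => forceB (ones C.W (1 + C.d * (C.n + C.ck.length + tri C.n))) fun O =>
        elimP C.W O P (1 + C.d * (C.n + C.ck.length)) X))

theorem ok_of {C : Cert} {dec : ℕ → ℕ} {P : ℕ} (h1 : C.shape = true) (h2 : term C = true)
    (h3 : forceB C.tab (okP C dec P) = true) : C.ok = true := by
  rw [forceB_eq, okP] at h3
  obtain ⟨h4, h5⟩ := band_eq_true.1 h3
  obtain ⟨h5, h6⟩ := band_eq_true.1 h5
  rw [forceB_eq, forceB_eq, rowsP_eq] at h6
  rw [Cert.ok, forceB_eq, Cert.okT, forceB_eq, forceB_eq]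
  refine band_eq_true.2 ⟨h1, band_eq_true.2 ⟨band_eq_true.2 ⟨allLt_iff.2 fun e he => allLt_iff.2 fun e' he' => ?_,
    allLt_iff.2 fun e he => allLt_iff.2 fun a ha => blt_iff.2 (run_pos (blt_iff.1 (of_allLt (of_allLt h2 he) ha)))⟩,
    band_eq_true.2 ⟨h5, elim_of h6⟩⟩⟩
  have a := of_allLt h4 he
  have b := of_allLt h4 (he'.trans he)
  rw [forceB_eq, beq_iff] at a b
  cases hb : Nat.beq (get (C.d * C.d) C.tab e) (get (C.d * C.d) C.tab e')
  · rfl
  · rw [beq_iff.1 hb, b] at a; omega

end Cfsg.Lib.X10.Spl
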